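import Cfsg.Agent.H7.T.B8_2
set_option Elab.async false
set_option maxRecDepth 100000
set_option maxHeartbeats 0
namespace H7.T
universe u v

theorem sepD24 {G : Type u} [Group G] (F : FM P24 G) : Sep (F.S P24.all) :=
  F.sep F.t3_all (trD24 F) (10,[]) [(10,[]),(0,[]),(1,[]),(8,[13,12]),(2,[]),(3,[])] (by decide +kernel)

end H7.T
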