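import Cfsg.Agent.H7.T.F3_1
import Cfsg.Agent.H7.T.F3_2
import Cfsg.Agent.H7.T.F3_3
set_option Elab.async false
set_option maxRecDepth 100000
set_option maxHeartbeats 0
namespace H7.T
universe u v

theorem e_YR_3 : erun 306936 16 N_F24 R_YR iv_YR 12 hs_YR (stK D_YR_3 K_YR_3)
  [.rel 1 0, .rel 2 0, .rel 3 0, .rel 4 0, .rel 5 0, .rel 6 0, .rel 7 0, .rel 8 0, .rel 9 0, .rel 20 0, .rel 30 0, .rel 31 1, .rel 32 1, .rel 39 0, .rel 40 1, .rel 41 1, .rel 43 1, .rel 43 0, .rel 44 1, .rel 45 1, .rel 46 1, .rel 47 0, .rel 48 1, .rel 49 1, .rel 51 1, .rel 52 1, .rel 53 1, .rel 54 0, .rel 55 1, .rel 56 1, .rel 58 1, .rel 59 1, .rel 60 1, .rel 60 0, .rel 62 1, .rel 64 1, .rel 65 1, .rel 65 0, .rel 66 0, .rel 67 1, .rel 67 0, .rel 69 1, .rel 69 0, .rel 70 0, .rel 71 1, .rel 71 0, .rel 73 1, .rel 73 0, .rel 74 1, .rel 74 0, .rel 75 1, .rel 76 1,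 .rel 57 0, .rel 61 0, .rel 68 1, .rel 72 1, .rel 72 0, .rel 19 0, .rel 21 1, .rel 22 1, .rel 29 0, .rel 31 1, .rel 32 1, .rel 38 0, .rel 40 1, .rel 41 1, .rel 46 0]
  D_YR_2 K_YR_2 = true := by decide +kernel

theorem e_YR_4 : erun 306936 16 N_F24 R_YR iv_YR 12 hs_YR (stK D_YR_4 K_YR_4)
  [.rel 48 1, .rel 49 1, .rel 53 0, .rel 56 1, .rel 58 1, .rel 58 0, .rel 59 1, .rel 59 0, .rel 62 1, .rel 64 1, .rel 64 0, .rel 69 1, .rel 70 1, .rel 71 1, .rel 73 1, .rel 63 1, .rel 63 0, .rel 68 0, .rel 77 0, .rel 18 0, .rel 28 0, .rel 37 0, .rel 45 0, .rel 52 0, .rel 58 1, .rel 58 0, .rel 59 1, .rel 64 0, .rel 65 1, .rel 66 1, .rel 67 1, .rel 70 1, .rel 70 0, .rel 71 0, .rel 73 0, .rel 74 0, .rel 57 1, .rel 61 0, .rel 63 0, .rel 17 0, .rel 27 0, .rel 36 0, .rel 44 0, .rel 51 1, .rel 51 0, .rel 52 1, .rel 53 1, .rel 58 1, .rel 59 1, .rel 60 1,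 .rel 62 1, .rel 62 0, .rel 64 1, .rel 66 0, .rel 67 0, .rel 70 0, .rel 73 0, .rel 75 0, .rel 76 0, .rel 50 1, .rel 50 0, .rel 57 0]
  D_YR_3 K_YR_3 = true := by decide +kernel

theorem e_YR_5 : erun 306936 16 N_F24 R_YR iv_YR 12 hs_YR (stK D_YR_5 K_YR_5)
  [.rel 61 1, .rel 63 0, .rel 68 0, .rel 77 1, .rel 77 0, .rel 16 0, .rel 21 0, .rel 22 0, .rel 26 0, .rel 31 0, .rel 32 0, .rel 35 0, .rel 40 0, .rel 41 0, .rel 43 1, .rel 43 0, .rel 44 1, .rel 45 1, .rel 46 1, .rel 48 1, .rel 48 0, .rel 49 1, .rel 49 0, .rel 51 1, .rel 51 0, .rel 52 1, .rel 52 0, .rel 53 1, .rel 53 0, .rel 54 1, .rel 54 0, .rel 55 1, .rel 55 0, .rel 56 1, .rel 58 1, .rel 58 0, .rel 59 1, .rel 59 0, .rel 60 1, .rel 60 0, .rel 62 1, .rel 64 1, .rel 64 0, .rel 65 1, .rel 65 0, .rel 66 1, .rel 67 1, .rel 69 1, .rel 69 0, .rel 70 1, .rel 71 1, .rel 73 1, .rel 73 0,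 .rel 74 1, .rel 74 0, .rel 75 1, .rel 75 0, .rel 76 1, .rel 42 1, .rel 42 0, .rel 50 1, .rel 50 0]
  D_YR_4 K_YR_4 = true := by decide +kernel

end H7.T
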