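import Cfsg.Agent.H7.T.F3_1
import Cfsg.Agent.H7.T.F3_2
import Cfsg.Agent.H7.T.F3_3
set_option Elab.async false
set_option maxRecDepth 100000
set_option maxHeartbeats 0
namespace H7.T
universe u v

theorem e_YR_9 : erun 306936 16 N_F24 R_YR iv_YR 12 hs_YR (stK D_YR_9 K_YR_9)
  [.rel 39 1, .rel 40 1, .rel 40 0, .rel 41 1, .rel 41 0, .rel 43 1, .rel 43 0, .rel 44 1, .rel 44 0, .rel 45 1, .rel 45 0, .rel 46 1, .rel 46 0, .rel 47 1, .rel 48 1, .rel 49 1, .rel 51 1, .rel 51 0, .rel 52 1, .rel 52 0, .rel 53 1, .rel 53 0, .rel 54 1, .rel 55 1, .rel 55 0, .rel 56 1, .rel 56 0, .rel 58 1, .rel 59 1, .rel 60 1, .rel 62 1, .rel 64 1, .rel 65 1, .rel 66 1, .rel 66 0, .rel 67 1, .rel 67 0, .rel 69 1, .rel 70 1, .rel 70 0, .rel 71 1, .rel 71 0, .rel 73 0, .rel 74 0, .rel 23 1, .rel 33 0, .rel 42 1, .rel 50 1, .rel 50 0, .rel 57 1, .rel 57 0, .rel 61 1, .rel 61 0, .rel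 63 0, .rel 13 1, .rel 25 1, .rel 31 1, .rel 34 1, .rel 34 0, .rel 35 1, .rel 35 0, .rel 36 1]
  D_YR_8 K_YR_8 = true := by decide +kernel

theorem e_YR_10 : erun 306936 16 N_F24 R_YR iv_YR 12 hs_YR (stK (ones 306936) (mkK 306936 (ones 306936) [0,1,2,3,4,5,6,7,8,9,10,11]))
  [.rel 36 0, .rel 37 1, .rel 37 0, .rel 38 0, .rel 39 1, .rel 40 1, .rel 41 1, .rel 51 0, .rel 52 0, .rel 53 0, .rel 50 0, .rel 26 1, .rel 29 1, .rel 30 1, .rel 34 1, .rel 38 1, .rel 16 1, .rel 21 1, .rel 27 1, .rel 28 1, .rel 32 1]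
  D_YR_9 K_YR_9 = true := by decide +kernel

end H7.T
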