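import Cfsg.Agent.H7.T.Q22_2
set_option Elab.async false
set_option maxRecDepth 100000
set_option maxHeartbeats 0
namespace H7.T
universe u v

theorem jb_s22_0 : jtab 2 7 10 10 1023 JT_s22 JK_s22 JC_s22 [573] 0 27 = true := by decide +kernel

theorem jb_s22_1 : jtab 2 7 10 10 1023 JT_s22 JK_s22 JC_s22 [573] 27 27 = true := by decide +kernel

theorem jb_s22_2 : jtab 2 7 10 10 1023 JT_s22 JK_s22 JC_s22 [573] 54 27 = true := by decide +kernel

theorem jb_s22_3 : jtab 2 7 10 10 1023 JT_s22 JK_s22 JC_s22 [573] 81 27 = true := by decide +kernel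

theorem jb_s22_4 : jtab 2 7 10 10 1023 JT_s22 JK_s22 JC_s22 [573] 108 20 = true := by decide +kernel

end H7.T
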