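import Cfsg.Agent.H7.T.Q22_2
set_option Elab.async false
set_option maxRecDepth 100000
set_option maxHeartbeats 0
namespace H7.T
universe u v

theorem jc_s22_6_0 : cjT (eqW eq_22q W_s22) 2 10 7 10 1023 (JT_s22.get 6) [6] 0 1000 = true := by decide +kernel

theorem jc_s22_6_1 : cjT (eqW eq_22q W_s22) 2 10 7 10 1023 (JT_s22.get 6) [6] 1000 24 = true := by decide +kernel

end H7.T
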