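import Cfsg.Agent.H7.T.GQ22E
import Cfsg.Agent.H7.TL2
import Cfsg.Agent.H8.XU42
import Cfsg.Agent.H7.TL5
import Cfsg.Agent.S0283
import Cfsg.Agent.S0815

/-! H8.XQ22E: target group (generated certificate) -/

set_option autoImplicit false
set_option maxRecDepth 200000

open Matrix

namespace H8.Q22E

theorem cen : Subgroup.center P = ⊥ := center_eq_bot lets base (nat_lit 0) [[nat_lit 3, nat_lit 4]] [[], [nat_lit 5, nat_lit 4, nat_lit 3, nat_lit 5], [nat_lit 4, nat_lit 2, nat_lit 5], [nat_lit 4, nat_lit 0, nat_lit 2, nat_lit 5]] (by decide +kernel)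
theorem pk {F : Type} [Field F] [Fintype F] (hF : Fintype.card F = 4) :
    (∀ R : Subgroup P, R.Normal → IsPGroup 2 R → R = ⊥) ∧ Nonempty (P ≃* MulAut (Cfsg.PSU 4 F 2)) := by
  obtain ⟨e⟩ := U42.iso hF
  have c := (Nat.card_congr e.toEquiv).trans U42.card
  have : Fact (Nat.Prime 2) := ⟨Nat.prime_two⟩
  obtain ⟨a, b⟩ := H7.two_pack (X := P) (H7.PG_le (by decide +kernel)) (by rw [card, U42.card]) cen e (Cfsg.Agent.S0283.result (q := 2) hF 4 (by decide) (by decide)) (by rw [c]; norm_num)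
  refine ⟨a 2 fun h => ?_, b ?_⟩
  · have := Nat.finite_of_card_ne_zero (c.trans_ne (by decide))
    obtain ⟨n, e⟩ := h.exists_card_eq
    exact absurd (Nat.prime_three.dvd_of_dvd_pow (by rw [← e, c]; decide : 3 ∣ 2 ^ n)) (by decide)
  · rw [Cfsg.Agent.S0815.result 2 1 le_rfl (q := 2) rfl hF 4 (by decide) (by decide), c, card]; decide

end H8.Q22E
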